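import Mathlib
import Cfsg.Agent.H738.E6.Def
import Cfsg.Agent.H738.E6.Lin
import Cfsg.Agent.H738.C3.Tools
import Cfsg.Agent.H415.C3.KitOf

/-!
# S1920, case B, `E₆(q)`: group lemmas for the relation `Rel10` (helper738)
-/

set_option autoImplicit false

open QuadraticMap Module Subgroup
open scoped commutatorElement

namespace Cfsg.Agent.H738.E6

open Cfsg.Agent.H13.Co3 Cfsg.Agent.H415.C3

variable {G F V : Type*} [Group G] [Field F] [AddCommGroup V] [Module F V] {P N0 : Subgroup G} {z s : G}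
  {Q : QuadraticForm F V} {rel : G → (V ≃ₗ[F] V) → Prop} {ψ : ↥(normalizer (P : Set G)) →* Equiv.Perm (Fin 6)}

namespace Rel10

theorem finDim (R : Rel10 z N0 Q rel) : FiniteDimensional F V := Module.finite_of_finrank_pos (by rw [R.dim]; norm_num)

theorem nontriv (R : Rel10 z N0 Q rel) : Nontrivial V := Module.nontrivial_of_finrank_pos (R := F) (by rw [R.dim]; norm_num)

theorem exQ (R : Rel10 z N0 Q rel) : ∃ v, Q v ≠ 0 := by
  by_contra hcon
  push Not at hcon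
  have := R.nontriv
  obtain ⟨v, hv⟩ := exists_ne (0 : V)
  exact hv (R.nd v fun w => by simp only [polar, hcon, sub_zero])

theorem rel_one (R : Rel10 z N0 Q rel) {M : V ≃ₗ[F] V} {g : G} (h : rel g M) (hM : ∃ c : F, ∀ v, M v = c • v) :
    rel g 1 := by
  obtain ⟨c, hc⟩ := hM
  have := R.nontriv
  obtain ⟨v, hv⟩ := exists_ne (0 : V)
  have hc0 : c ≠ 0 := by
    rintro rfl
    have h1 := hc v
    rw [zero_smul, LinearEquiv.map_eq_zero_iff] at h1
    exact hv h1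
  refine R.smul c⁻¹ h fun v => ?_
  rw [hc, smul_smul, inv_mul_cancel₀ hc0, one_smul]
  rfl

theorem one_one (R : Rel10 z N0 Q rel) : rel 1 1 := by
  obtain ⟨M, hM⟩ := R.ex (g := 1) (by rw [one_mul, mul_one])
  exact R.rel_one hM (R.one hM)

theorem z_one (R : Rel10 z N0 Q rel) : rel z 1 := by
  obtain ⟨M, hM⟩ := R.ex (g := z) rfl
  exact R.rel_one hM (R.zsc hM)

theorem sc (R : Rel10 z N0 Q rel) {M : V ≃ₗ[F] V} {g : G} (h : rel g M) (hM : ∃ c : F, ∀ v, M v = c • v) :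
    ∃ τ : G, Odd (orderOf τ) ∧ (∀ h, h * z = z * h → τ * h = h * τ) ∧ (g = τ ∨ g = τ * z) :=
  R.ker (R.rel_one h hM)

theorem uniq (R : Rel10 z N0 Q rel) {M N : V ≃ₗ[F] V} {g : G} (h : rel g M) (h' : rel g N) :
    ∃ c : F, c ≠ 0 ∧ ∀ v, N v = c • M v := by
  have h1 := R.mul h' (R.inv h)
  rw [mul_inv_cancel] at h1
  obtain ⟨c, hc⟩ := R.one h1
  have hc' : ∀ v, N v = c • M v := by
    intro v
    have h3 := hc (M v)
    have h4 : (N * M⁻¹) (M v) = N v := by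
      rw [LinearEquiv.mul_apply]
      congr 1
      exact M.symm_apply_apply v
    rw [h4] at h3
    exact h3
  refine ⟨c, ?_, hc'⟩
  rintro rfl
  have := R.nontriv
  obtain ⟨v, hv⟩ := exists_ne (0 : V)
  have h1 := hc' v
  rw [zero_smul, LinearEquiv.map_eq_zero_iff] at h1
  exact hv h1

theorem uniq_iso (R : Rel10 z N0 Q rel) {M N : V ≃ₗ[F] V} {g : G} (h : rel g M) (h' : rel g N)
    (hM : ∀ v, Q (M v) = Q v) (hN : ∀ v, Q (N v) = Q v) : N = M ∨ ∀ v, N v = -M v := by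
  obtain ⟨c, -, hc⟩ := R.uniq h h'
  obtain ⟨v, hv⟩ := R.exQ
  have h1 : c * c = 1 := by
    have h3 := hN v
    rw [hc, QuadraticMap.map_smul, hM, smul_eq_mul] at h3
    exact mul_right_cancel₀ hv (h3.trans (one_mul _).symm)
  rcases mul_self_eq_one_iff.1 h1 with rfl | rfl
  · left
    ext v
    rw [hc, one_smul]
  · right
    intro v
    rw [hc, neg_smul, one_smul]

theorem det_one (R : Rel10 z N0 Q rel) {M : V ≃ₗ[F] V} {g : G} (h : rel g M) (hM : ∀ v, Q (M v) = Q v) :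
    LinearMap.det (M : V →ₗ[F] V) = 1 := by
  obtain ⟨μ, -, h1, h3⟩ := R.sim h
  obtain ⟨v, hv⟩ := R.exQ
  have h4 : μ = 1 := by
    have h5 := h1 v
    rw [hM] at h5
    exact (mul_right_cancel₀ hv ((one_mul _).trans h5)).symm
  rw [h3, h4, one_pow]

theorem pow (R : Rel10 z N0 Q rel) {M : V ≃ₗ[F] V} {g : G} (h : rel g M) (m : ℕ) : rel (g ^ m) (M ^ m) := by
  induction m with
  | zero => rw [pow_zero, pow_zero]; exact R.one_one
  | succ m ih => rw [pow_succ, pow_succ]; exact R.mul ih h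

/-- a lift of a 2-element of small order to a 2-element -/
theorem two_elt [Finite G] (R : Rel10 z N0 Q rel) {M : V ≃ₗ[F] V} {g : G} (h : rel g M) (hM : M ^ 8 = 1) :
    ∃ g' : G, rel g' M ∧ ∃ k, g' ^ 2 ^ k = 1 := by
  obtain ⟨t, m, hm, hgm⟩ := Nat.exists_eq_two_pow_mul_odd (orderOf_pos g).ne'
  refine ⟨g ^ (m * m), ?_, t, ?_⟩
  · have h1 := R.pow h (m * m)
    have h3 : M ^ (m * m) = M := by
      obtain ⟨j, hj⟩ : ∃ j, m * m = 8 * j + 1 := by
        obtain ⟨i, rfl⟩ := hm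
        rcases Nat.even_or_odd i with ⟨k, rfl⟩ | ⟨k, rfl⟩
        · exact ⟨k * (2 * k + 1), by ring⟩
        · exact ⟨(2 * k + 1) * (k + 1), by ring⟩
      rw [hj, pow_succ, pow_mul, hM, one_pow, one_mul]
    rwa [h3] at h1
  · have e : m * m * 2 ^ t = orderOf g * m := by rw [hgm]; ring
    rw [← pow_mul, e, pow_mul, pow_orderOf_eq_one, one_pow]

theorem comm_sc (R : Rel10 z N0 Q rel) {M N : V ≃ₗ[F] V} {n m : G} (h : rel n M) (h' : rel m N)
    (hc : n * m = m * n ∨ n * m = z * (m * n)) : ∃ c : F, c ≠ 0 ∧ ∀ v, M (N v) = c • N (M v) := by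
  have h1 : rel (n * m) (N * M) := by
    rcases hc with hc | hc
    · rw [hc]; exact R.mul h' h
    · rw [hc]
      have := R.mul R.z_one (R.mul h' h)
      rwa [one_mul] at this
  exact R.uniq h1 (R.mul h h')

/-- conjugation of elements of `N0` -/
theorem conjN (R : Rel10 z N0 Q rel) (C : CB P N0 z s ψ) {g n n' : G} {M Mn Mn' : V ≃ₗ[F] V} (hg : rel g M)
    (hn : n ∈ N0) (hn' : n' ∈ N0) (h : rel n Mn) (h' : rel n' Mn') (hc : ∃ c : F, ∀ v, M (Mn v) = c • Mn' (M v)) :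
    g * n * g⁻¹ = n' ∨ g * n * g⁻¹ = z * n' := by
  have h1 : rel (g * n * g⁻¹ * n'⁻¹) (M * Mn * M⁻¹ * Mn'⁻¹) := R.mul (R.mul (R.mul hg h) (R.inv hg)) (R.inv h')
  obtain ⟨c, hc⟩ := hc
  obtain ⟨τ, hτo, hτc, hτ⟩ := R.sc h1 ⟨c, fun v => by
    have e : (M * Mn * M⁻¹ * Mn'⁻¹) v = M (Mn (M⁻¹ (Mn'⁻¹ v))) := rfl
    rw [e, hc]
    have e2 : Mn' (M (M⁻¹ (Mn'⁻¹ v))) = v := by
      have e3 : M (M⁻¹ (Mn'⁻¹ v)) = Mn'⁻¹ v := M.apply_symm_apply _
      rw [e3]
      exact Mn'.apply_symm_apply v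
    rw [e2]⟩
  have hn'z : n' * z = z * n' := R.cen h'
  have hτn' : τ * n' = n' * τ := hτc n' hn'z
  have hτz : τ * z = z * τ := hτc z rfl
  have h4 : ∀ m ∈ N0, m ^ 4 = 1 := by
    intro m hm
    have e : m ^ 4 = m * m * (m * m) := by simp only [pow_succ, pow_zero, one_mul, mul_assoc]
    rw [e]
    rcases C.sq m hm with h5 | h5
    · rw [h5, one_mul]
    · rw [h5, C.z_sq]
  have hx4 : (g * n * g⁻¹) ^ 4 = 1 := by rw [conj_pow, h4 n hn, mul_one, mul_inv_cancel]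
  have key : τ ^ 4 = 1 := by
    rcases hτ with h5 | h5
    · rw [mul_inv_eq_iff_eq_mul] at h5
      rw [h5, (show Commute τ n' from hτn').mul_pow, h4 n' hn', mul_one] at hx4
      exact hx4
    · rw [mul_inv_eq_iff_eq_mul] at h5
      have hc1 : Commute (τ * z) n' := (show Commute τ n' from hτn').mul_left (show Commute z n' from hn'z.symm)
      have hz4 : z ^ 4 = 1 := h4 z (C.PN C.zP)
      rw [h5, hc1.mul_pow, h4 n' hn', mul_one, (show Commute τ z from hτz).mul_pow, hz4, mul_one] at hx4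
      exact hx4
  have hτ1 : τ = 1 := by
    have h5 : orderOf τ ∣ 2 ^ 2 := orderOf_dvd_of_pow_eq_one key
    have h6 : (orderOf τ).Coprime (2 ^ 2) := (Nat.coprime_two_right.2 hτo).pow_right 2
    have h7 : orderOf τ ∣ 1 := h6 ▸ Nat.dvd_gcd dvd_rfl h5
    exact orderOf_eq_one_iff.1 (Nat.dvd_one.1 h7)
  rcases hτ with h5 | h5
  · left
    rw [hτ1, mul_inv_eq_one] at h5
    exact h5
  · right
    rw [hτ1, one_mul, mul_inv_eq_iff_eq_mul] at h5
    exact h5

/-- membership in `A` -/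
theorem mem_A (R : Rel10 z N0 Q rel) (C : CB P N0 z s ψ) {g : G} {M : V ≃ₗ[F] V} (hg : rel g M)
    (hc : ∀ n ∈ N0, ∀ Mn, rel n Mn → ∃ c : F, ∀ v, M (Mn v) = c • Mn (M v)) :
    ∀ n ∈ N0, g * n = n * g ∨ g * n = z * (n * g) := by
  intro n hn
  obtain ⟨Mn, hMn⟩ := R.ex (g := n) (by
    rcases C.comm n hn z (C.PN C.zP) with h | h
    · exact h
    · exfalso
      have h1 : n * z = n := by
        rw [h, ← mul_assoc, C.z_sq, one_mul]
      exact C.z_ne (by simpa using h1))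
  rcases R.conjN C hg hn hn hMn hMn (hc n hn Mn hMn) with h | h
  · left; rwa [mul_inv_eq_iff_eq_mul] at h
  · right; rwa [mul_inv_eq_iff_eq_mul, mul_assoc] at h

/-- commuting with a perfect group -/
theorem comm_perfect (R : Rel10 z N0 Q rel) {E : Subgroup G} (hE : ⁅E, E⁆ = E) {g : G} {M : V ≃ₗ[F] V} (hg : rel g M)
    (hc : ∀ e ∈ E, ∃ Me, rel e Me ∧ M * Me = Me * M) : ∀ e ∈ E, g * e = e * g := by
  have key : ∀ e ∈ E, ∃ c : G, g * e * g⁻¹ = c * e ∧ ∀ h, h * z = z * h → c * h = h * c := by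
    intro e he
    obtain ⟨Me, hMe, hcm⟩ := hc e he
    have h1 : rel (g * e * g⁻¹ * e⁻¹) (M * Me * M⁻¹ * Me⁻¹) := R.mul (R.mul (R.mul hg hMe) (R.inv hg)) (R.inv hMe)
    have h3 : M * Me * M⁻¹ * Me⁻¹ = 1 := by rw [hcm, mul_inv_cancel_right, mul_inv_cancel]
    rw [h3] at h1
    obtain ⟨τ, -, hτc, hτ⟩ := R.ker h1
    rcases hτ with h4 | h4
    · exact ⟨τ, by rw [← h4]; group, hτc⟩
    · refine ⟨τ * z, by rw [← h4]; group, fun h hh => ?_⟩
      rw [mul_assoc, ← hh, ← mul_assoc, hτc h hh, mul_assoc]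
  have hcen : ∀ e ∈ E, e * z = z * e := by
    intro e he
    obtain ⟨Me, hMe, -⟩ := hc e he
    exact R.cen hMe
  have hle : E ≤ centralizer ({g} : Set G) := by
    conv_lhs => rw [← hE]
    rw [commutator_le]
    intro a ha b hb
    rw [mem_centralizer_singleton_iff]
    obtain ⟨c, hc1, hc2⟩ := key a ha
    obtain ⟨d, hd1, hd2⟩ := key b hb
    have hca := hc2 a (hcen a ha)
    have hcb := hc2 b (hcen b hb)
    have hda := hd2 a (hcen a ha)
    have hdb := hd2 b (hcen b hb)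
    have hzd : d * z = z * d := hd2 z rfl
    have hcd : c * d = d * c := hc2 d hzd
    have h5 : g * ⁅a, b⁆ * g⁻¹ = ⁅a, b⁆ := by
      have e1 : g * ⁅a, b⁆ * g⁻¹ = ⁅g * a * g⁻¹, g * b * g⁻¹⁆ := by
        simp only [commutatorElement_def]; group
      rw [e1, hc1, hd1, commutatorElement_def, commutatorElement_def]
      have c1 : Commute c a := hca
      have c2 : Commute c b := hcb
      have c3 : Commute d a := hda
      have c4 : Commute d b := hdb
      have c5 : Commute c d := hcd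
      calc c * a * (d * b) * (c * a)⁻¹ * (d * b)⁻¹ = c * a * d * b * a⁻¹ * c⁻¹ * b⁻¹ * d⁻¹ := by group
        _ = c * (a * d) * b * a⁻¹ * (c⁻¹ * b⁻¹) * d⁻¹ := by group
        _ = c * (d * a) * b * a⁻¹ * (b⁻¹ * c⁻¹) * d⁻¹ := by rw [c3.eq, c2.inv_inv.eq]
        _ = (c * d) * (a * b * a⁻¹ * b⁻¹) * (c⁻¹ * d⁻¹) := by group
        _ = (c * d) * ((a * b * a⁻¹ * b⁻¹) * (c⁻¹ * d⁻¹)) := by group
        _ = (c * d) * ((c⁻¹ * d⁻¹) * (a * b * a⁻¹ * b⁻¹)) := by
          have h6 : Commute (a * b * a⁻¹ * b⁻¹) (c⁻¹ * d⁻¹) := by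
            have h7 : Commute (a * b * a⁻¹ * b⁻¹) c :=
              ((c1.symm.mul_left c2.symm).mul_left c1.symm.inv_left).mul_left c2.symm.inv_left
            have h8 : Commute (a * b * a⁻¹ * b⁻¹) d :=
              ((c3.symm.mul_left c4.symm).mul_left c3.symm.inv_left).mul_left c4.symm.inv_left
            exact h7.inv_right.mul_right h8.inv_right
          rw [h6.eq]
        _ = (c * d * c⁻¹ * d⁻¹) * (a * b * a⁻¹ * b⁻¹) := by group
        _ = a * b * a⁻¹ * b⁻¹ := by rw [c5.eq]; group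
    rw [mul_inv_eq_iff_eq_mul] at h5
    exact h5.symm
  intro e he
  exact (mem_centralizer_singleton_iff.1 (hle he)).symm

/-- perfect groups act through commutators -/
theorem perf_lift (R : Rel10 z N0 Q rel) {E : Subgroup G} (hE : ⁅E, E⁆ = E) (S S' : Subgroup (V ≃ₗ[F] V))
    (h : ∀ e ∈ E, ∃ M ∈ S, rel e M) (hS : ∀ M ∈ S, ∀ N ∈ S, ⁅M, N⁆ ∈ S') : ∀ e ∈ E, ∃ M ∈ S', rel e M := by
  let L : Subgroup G :=
    { carrier := {g | ∃ M ∈ S', rel g M}
      one_mem' := ⟨1, S'.one_mem, R.one_one⟩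
      mul_mem' := by
        rintro a b ⟨M, hM, h1⟩ ⟨N, hN, h3⟩
        exact ⟨M * N, S'.mul_mem hM hN, R.mul h1 h3⟩
      inv_mem' := by
        rintro a ⟨M, hM, h1⟩
        exact ⟨M⁻¹, S'.inv_mem hM, R.inv h1⟩ }
  have hle : E ≤ L := by
    conv_lhs => rw [← hE]
    rw [commutator_le]
    intro a ha b hb
    obtain ⟨M, hM, h1⟩ := h a ha
    obtain ⟨N, hN, h3⟩ := h b hb
    refine ⟨⁅M, N⁆, hS M hM N hN, ?_⟩
    rw [commutatorElement_def, commutatorElement_def]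
    exact R.mul (R.mul (R.mul h1 h3) (R.inv h1)) (R.inv h3)
  intro e he
  exact hle he

end Rel10

/-- 2-elements of `A` in the kernel are in `N0` -/
theorem in_N0 [Finite G] {A E : Subgroup G} {x r : G} {φ : ↥A →* Equiv.Perm (Fin 6)} (K : Kit N0 A E z s x r φ) {g : G}
    (hg : g ∈ A) {k : ℕ} (hk : g ^ 2 ^ k = 1) (h1 : φ ⟨g, hg⟩ = 1) : g ∈ N0 := by
  have h2 : Fact (Nat.Prime 2) := ⟨Nat.prime_two⟩
  have hNA : N0 ≤ A := K.N_A
  have hnorm : (N0.subgroupOf A).Normal := by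
    constructor
    intro n hn a
    have h3 := (K.mem_A a).1 a.2 n hn
    rw [mem_subgroupOf]
    change (a : G) * n * (a : G)⁻¹ ∈ N0
    rcases h3 with h3 | h3
    · rw [h3, mul_inv_cancel_right]; exact hn
    · rw [h3]
      have e : z * ((n : G) * a) * (a : G)⁻¹ = z * n := by group
      rw [e]
      exact mul_mem K.z_mem hn
  have hp : IsPGroup 2 (zpowers (⟨g, hg⟩ : A)) := by
    rw [IsPGroup.iff_card]
    have h3 : orderOf (⟨g, hg⟩ : A) ∣ 2 ^ k := orderOf_dvd_of_pow_eq_one (Subtype.ext hk)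
    obtain ⟨j, -, hj⟩ := (Nat.dvd_prime_pow Nat.prime_two).1 h3
    exact ⟨j, by rw [Nat.card_zpowers, hj]⟩
  have hNp : IsPGroup 2 (N0.subgroupOf A) := K.N_two.of_equiv (subgroupOfEquivOfLe hNA).symm
  have hsup : IsPGroup 2 (N0.subgroupOf A ⊔ zpowers (⟨g, hg⟩ : A) : Subgroup A) := IsPGroup.to_sup_of_normal_left hNp hp
  have hker : N0.subgroupOf A ⊔ zpowers (⟨g, hg⟩ : A) ≤ φ.ker := by
    apply sup_le
    · intro n hn
      exact K.N_ker n n.2 hn
    · rw [zpowers_le]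
      exact h1
  have h3 := K.two_le _ hsup hker
  have h4 : Nat.card (N0.subgroupOf A) = 64 := by
    rw [← K.card]
    exact Nat.card_congr (subgroupOfEquivOfLe hNA).toEquiv
  have h5 : N0.subgroupOf A = N0.subgroupOf A ⊔ zpowers (⟨g, hg⟩ : A) := by
    apply Subgroup.eq_of_le_of_card_ge le_sup_left
    rw [h4]
    exact Nat.le_of_dvd (by norm_num) h3
  have h6 : (⟨g, hg⟩ : A) ∈ N0.subgroupOf A := by
    rw [h5]
    exact (le_sup_right : zpowers (⟨g, hg⟩ : A) ≤ _) (mem_zpowers _)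
  exact h6

end Cfsg.Agent.H738.E6
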